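import Cfsg.Agent.Lib.Helper29.OrdBasic

/-!
# A kernel-checkable lower bound for the order of a permutation group on `Fin n`

Nodes of a straight-line program with their tables, and a stabiliser chain whose transversal
elements are nodes.
-/

set_option autoImplicit false

namespace Cfsg.Agent.Lib.Helper86.PermChain

open Cfsg.Agent.Lib.Helper29.OrdBasic

variable {n : ℕ}

/-- all `k < m` satisfy `f` -/
def allLt (f : ℕ → Bool) : ℕ → Bool
  | 0 => true
  | k + 1 => f k && allLt f k

theorem allLt_spec (f : ℕ → Bool) : ∀ m, allLt f m = true → ∀ k, k < m → f k = true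
  | 0, _, k, hk => absurd hk (Nat.not_lt_zero k)
  | m + 1, h, k, hk => by
    rw [allLt, Bool.and_eq_true] at h
    rcases Nat.lt_succ_iff_lt_or_eq.1 hk with h' | rfl
    · exact allLt_spec f m h.2 k h'
    · exact h.1

/-- the node `k` is an element of `P` acting by the table row `T k` -/
def Good (P : Subgroup (Equiv.Perm (Fin n))) (T : ℕ → ℕ → ℕ) (k : ℕ) : Prop :=
  ∃ x ∈ P, ∀ p : Fin n, ((x p : Fin n) : ℕ) = T k p.1

theorem good_mul {P : Subgroup (Equiv.Perm (Fin n))} {T : ℕ → ℕ → ℕ} {i j k : ℕ}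
    (hi : Good P T i) (hj : Good P T j) (h : ∀ p, p < n → T k p = T i (T j p)) : Good P T k := by
  obtain ⟨x, hx, hx'⟩ := hi
  obtain ⟨y, hy, hy'⟩ := hj
  refine ⟨x * y, P.mul_mem hx hy, fun p => ?_⟩
  rw [Equiv.Perm.mul_apply, hx', hy', h p.1 p.2]

/-- straight-line program check for node `k` -/
def slpOK (T : ℕ → ℕ → ℕ) (I J : ℕ → ℕ) (n k : ℕ) : Bool :=
  decide (I k < k) && decide (J k < k) && allLt (fun p => T k p == T (I k) (T (J k) p)) n

theorem good_all {P : Subgroup (Equiv.Perm (Fin n))} {T : ℕ → ℕ → ℕ} (I J : ℕ → ℕ) (r M : ℕ)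
    (hbase : ∀ k, k < r → Good P T k)
    (hslp : ∀ k, r ≤ k → k < M → slpOK T I J n k = true) : ∀ k, k < M → Good P T k := by
  intro k
  induction k using Nat.strong_induction_on with
  | _ k ih =>
    intro hk
    by_cases hkr : k < r
    · exact hbase k hkr
    · have h := hslp k (not_lt.1 hkr) hk
      unfold slpOK at h
      simp only [Bool.and_eq_true, decide_eq_true_eq] at h
      obtain ⟨⟨h1, h2⟩, h3⟩ := h
      refine good_mul (ih _ h1 (h1.trans hk)) (ih _ h2 (h2.trans hk)) (fun p hp => ?_)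
      have := allLt_spec _ n h3 p hp
      exact beq_iff_eq.1 this

/-- the set of points with values in a list -/
def FS (n : ℕ) (bs : List ℕ) : Set (Fin n) := {x | x.1 ∈ bs}

/-- level check: the nodes fix the earlier base points and map `b` to distinct points -/
def lvlOK (T : ℕ → ℕ → ℕ) (M : ℕ) (bs : List ℕ) (b : ℕ) (l : List (ℕ × ℕ)) : Bool :=
  l.all (fun qk => decide (qk.2 < M) && (T qk.2 b == qk.1) && bs.all (fun c => T qk.2 c == c)) &&
    decide ((l.map Prod.fst).Nodup)

theorem level_step (P : Subgroup (Equiv.Perm (Fin n))) {T : ℕ → ℕ → ℕ} {M : ℕ}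
    (hgood : ∀ k, k < M → Good P T k) (bs : List ℕ) (b : ℕ) (hb : b < n) (l : List (ℕ × ℕ))
    (h : lvlOK T M bs b l = true) :
    l.length * Nat.card (fixer P (FS n (b :: bs))) ≤ Nat.card (fixer P (FS n bs)) := by
  unfold lvlOK at h
  rw [Bool.and_eq_true, List.all_eq_true, decide_eq_true_eq] at h
  obtain ⟨hall, hnd⟩ := h
  have key : ∀ qk ∈ l, ∃ σ ∈ fixer P (FS n bs), ((σ ⟨b, hb⟩ : Fin n) : ℕ) = qk.1 := by
    intro qk hqk
    have h1 := hall qk hqk
    simp only [Bool.and_eq_true, decide_eq_true_eq, beq_iff_eq, List.all_eq_true] at h1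
    obtain ⟨⟨hk, hq⟩, hfix⟩ := h1
    obtain ⟨x, hx, hx'⟩ := hgood _ hk
    refine ⟨x, ⟨hx, fun c hc => ?_⟩, ?_⟩
    · apply Fin.ext
      rw [hx']
      exact hfix c.1 hc
    · rw [hx']
      exact hq
  have hlt : ∀ q ∈ l.map Prod.fst, q < n := by
    intro q hq
    obtain ⟨qk, hqk, rfl⟩ := List.mem_map.1 hq
    obtain ⟨σ, _, hσ⟩ := key qk hqk
    rw [← hσ]
    exact (σ ⟨b, hb⟩).2
  have hins : insert (⟨b, hb⟩ : Fin n) (FS n bs) = FS n (b :: bs) := by
    ext y
    simp only [FS, Set.mem_insert_iff, Set.mem_ofPred_eq, List.mem_cons, Fin.ext_iff]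
  rw [← hins]
  apply fixer_step P (FS n bs) ⟨b, hb⟩ {y : Fin n | y.1 ∈ l.map Prod.fst} l.length
  · let f : Fin (l.map Prod.fst).length → Fin n := fun i => ⟨(l.map Prod.fst).get i, hlt _ (List.get_mem _ _)⟩
    have hf : Function.Injective f := by
      intro i j hij
      have : (l.map Prod.fst).get i = (l.map Prod.fst).get j := congrArg Fin.val hij
      exact (List.Nodup.get_inj_iff hnd).1 this
    have hsub : Set.range f ⊆ {y : Fin n | y.1 ∈ l.map Prod.fst} := by
      rintro _ ⟨i, rfl⟩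
      exact List.get_mem _ _
    have hcard : (Set.range f).ncard = l.length := by
      rw [← Set.image_univ, Set.ncard_image_of_injective _ hf, Set.ncard_univ, Nat.card_fin,
        List.length_map]
    rw [← hcard]
    exact Set.ncard_le_ncard hsub (Set.toFinite _)
  · intro y hy
    obtain ⟨qk, hqk, hq⟩ := List.mem_map.1 hy
    obtain ⟨σ, hσ, hσ'⟩ := key qk hqk
    exact ⟨σ, hσ, Fin.ext (hσ'.trans hq)⟩

/-- the check of all levels -/
def lvlsOK (T : ℕ → ℕ → ℕ) (n M : ℕ) : List ℕ → List (ℕ × List (ℕ × ℕ)) → Bool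
  | _, [] => true
  | bs, (b, l) :: rest => decide (b < n) && lvlOK T M bs b l && lvlsOK T n M (b :: bs) rest

/-- the product of the orbit lengths -/
def lvlsProd : List (ℕ × List (ℕ × ℕ)) → ℕ
  | [] => 1
  | (_, l) :: rest => l.length * lvlsProd rest

theorem chain_bound (P : Subgroup (Equiv.Perm (Fin n))) {T : ℕ → ℕ → ℕ} {M : ℕ}
    (hgood : ∀ k, k < M → Good P T k) :
    ∀ (lv : List (ℕ × List (ℕ × ℕ))) (bs : List ℕ), lvlsOK T n M bs lv = true →
      lvlsProd lv ≤ Nat.card (fixer P (FS n bs))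
  | [], bs, _ => one_le_card_fixer P (FS n bs)
  | (b, l) :: rest, bs, h => by
    unfold lvlsOK at h
    simp only [Bool.and_eq_true, decide_eq_true_eq] at h
    obtain ⟨⟨hb, h1⟩, h2⟩ := h
    have ih := chain_bound P hgood rest (b :: bs) h2
    have st := level_step P hgood bs b hb l h1
    calc lvlsProd ((b, l) :: rest) = l.length * lvlsProd rest := rfl
      _ ≤ l.length * Nat.card (fixer P (FS n (b :: bs))) := Nat.mul_le_mul_left _ ih
      _ ≤ _ := st

/-- **Lower bound** for the order of a permutation group from a chain certificate. -/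
theorem card_ge (P : Subgroup (Equiv.Perm (Fin n))) (T : ℕ → ℕ → ℕ) (I J : ℕ → ℕ) (r M : ℕ)
    (hbase : ∀ k, k < r → Good P T k)
    (hslp : ∀ k, r ≤ k → k < M → slpOK T I J n k = true)
    (lv : List (ℕ × List (ℕ × ℕ))) (hlv : lvlsOK T n M [] lv = true) :
    lvlsProd lv ≤ Nat.card P := by
  have h := chain_bound P (good_all I J r M hbase hslp) lv [] hlv
  have h0 : FS n [] = ∅ := by
    ext y
    simp [FS]
  rwa [h0, fixer_empty] at h

end Cfsg.Agent.Lib.Helper86.PermChain
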