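import Cfsg.Agent.Lib.Helper86.Sp4.F4

/-!
# The symplectic group `Sp₄(4)` has at most `979200` elements

Orbit-stabiliser along a symplectic basis `e₁, f₁, e₂, f₂`.
-/

set_option autoImplicit false

namespace Cfsg.Agent.Lib.Helper86.Sp4Card

open Cfsg.Agent.Lib.Helper86.Sp4F4 Matrix

abbrev I4 := Fin 2 ⊕ Fin 2
abbrev V := I4 → F4
abbrev S := Matrix.symplecticGroup (Fin 2) F4

def mkV (a b c d : F4) : V := Sum.elim ![a, b] ![c, d]

theorem eta (v : V) : v = mkV (v (.inl 0)) (v (.inl 1)) (v (.inr 0)) (v (.inr 1)) := by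
  funext i
  rcases i with i | i <;> fin_cases i <;> rfl

theorem mulVec4 (A : Matrix I4 I4 F4) (v : V) (i : I4) :
    (A *ᵥ v) i = A i (.inl 0) * v (.inl 0) + A i (.inl 1) * v (.inl 1) + A i (.inr 0) * v (.inr 0)
      + A i (.inr 1) * v (.inr 1) := by
  simp [Matrix.mulVec, dotProduct, Fintype.sum_sum_type, Fin.sum_univ_two, add_assoc]

instance actV : MulAction S V where
  smul A v := A.1 *ᵥ v
  one_smul v := Matrix.one_mulVec v
  mul_smul A B v := (Matrix.mulVec_mulVec v A.1 B.1).symm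

theorem smul_def (A : S) (v : V) : A • v = A.1 *ᵥ v := rfl

/-- the symplectic form -/
def om (u v : V) : F4 := u ⬝ᵥ (J (Fin 2) F4 *ᵥ v)

theorem om_smul (A : S) (u v : V) : om (A • u) (A • v) = om u v := by
  have hA := (SymplecticGroup.mem_iff' (A := A.1)).1 A.2
  unfold om
  rw [smul_def, smul_def, Matrix.mulVec_mulVec]
  rw [dotProduct_comm, Matrix.dotProduct_mulVec, ← Matrix.mulVec_transpose, dotProduct_comm,
    Matrix.mulVec_mulVec, ← Matrix.mul_assoc, hA]

theorem om_eq (u v : V) : om u v = u (.inl 0) * v (.inr 0) + u (.inl 1) * v (.inr 1)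
    + u (.inr 0) * v (.inl 0) + u (.inr 1) * v (.inl 1) := by
  unfold om
  simp only [dotProduct, Fintype.sum_sum_type, Fin.sum_univ_two, mulVec4]
  simp [J, F4.neg_eq, add_assoc]

def e1 : V := mkV 1 0 0 0
def e2 : V := mkV 0 1 0 0
def f1 : V := mkV 0 0 1 0
def f2 : V := mkV 0 0 0 1

theorem om_e1 (v : V) : om e1 v = v (.inr 0) := by
  rw [om_eq]; simp [e1, mkV]
theorem om_f1 (v : V) : om f1 v = v (.inl 0) := by
  rw [om_eq]; simp [f1, mkV]
theorem om_e2 (v : V) : om e2 v = v (.inr 1) := by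
  rw [om_eq]; simp [e2, mkV]

theorem smul_ne_zero (A : S) (v : V) (hv : v ≠ 0) : A • v ≠ 0 := by
  intro h
  apply hv
  have : A⁻¹ • (A • v) = v := inv_smul_smul A v
  rw [← this, h, smul_def, Matrix.mulVec_zero]

theorem card_le_mul_stab {Γ X : Type*} [Group Γ] [MulAction Γ X] [Finite Γ] (x : X) (c : ℕ)
    (T : Set X) (hT : T.Finite) (hc : T.ncard ≤ c) (h : ∀ g : Γ, g • x ∈ T) :
    Nat.card Γ ≤ c * Nat.card (MulAction.stabilizer Γ x) := by
  have h1 := Subgroup.card_mul_index (MulAction.stabilizer Γ x)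
  rw [MulAction.index_stabilizer] at h1
  have h2 : (MulAction.orbit Γ x).ncard ≤ c :=
    (Set.ncard_le_ncard (by rintro _ ⟨g, rfl⟩; exact h g) hT).trans hc
  calc Nat.card Γ = Nat.card (MulAction.stabilizer Γ x) * (MulAction.orbit Γ x).ncard := h1.symm
    _ ≤ Nat.card (MulAction.stabilizer Γ x) * c := Nat.mul_le_mul_left _ h2
    _ = c * _ := Nat.mul_comm _ _

/-- a set of vectors described by coordinates has at most as many elements as the coordinate set -/
theorem ncard_le (T : Set V) (c : ℕ) (F : Finset (F4 × F4 × F4 × F4)) (hF : F.card ≤ c)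
    (h : ∀ v ∈ T, (v (.inl 0), v (.inl 1), v (.inr 0), v (.inr 1)) ∈ F) : T.ncard ≤ c := by
  have hsub : T ⊆ (fun q : F4 × F4 × F4 × F4 => mkV q.1 q.2.1 q.2.2.1 q.2.2.2) '' (F : Set _) := by
    intro v hv
    exact ⟨_, h v hv, (eta v).symm⟩
  calc T.ncard ≤ ((fun q : F4 × F4 × F4 × F4 => mkV q.1 q.2.1 q.2.2.1 q.2.2.2) '' (F : Set _)).ncard :=
        Set.ncard_le_ncard hsub (Set.toFinite _)
    _ ≤ (F : Set (F4 × F4 × F4 × F4)).ncard := Set.ncard_image_le (Set.toFinite _)
    _ = F.card := Set.ncard_coe_finset F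
    _ ≤ c := hF

abbrev G1 := MulAction.stabilizer S e1
abbrev G2 := MulAction.stabilizer G1 f1
abbrev G3 := MulAction.stabilizer G2 e2
abbrev G4 := MulAction.stabilizer G3 f2

theorem e1_ne : e1 ≠ 0 := fun h => by
  have := congrFun h (.inl 0)
  revert this; decide
theorem e2_ne : e2 ≠ 0 := fun h => by
  have := congrFun h (.inl 1)
  revert this; decide

theorem step1 : Nat.card S ≤ 255 * Nat.card G1 := by
  apply card_le_mul_stab e1 255 {v : V | v ≠ 0} (Set.toFinite _)
  · apply ncard_le _ 255 (Finset.univ.filter (fun q : F4 × F4 × F4 × F4 => q ≠ (0, 0, 0, 0)))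
      (by decide +kernel)
    intro v hv
    rw [Finset.mem_filter]
    refine ⟨Finset.mem_univ _, fun h => hv ?_⟩
    rw [eta v]
    simp only [Prod.mk.injEq] at h
    funext i
    rcases i with i | i <;> fin_cases i <;> simp [mkV, h]
  · intro g
    exact smul_ne_zero g e1 e1_ne

theorem step2 : Nat.card G1 ≤ 64 * Nat.card G2 := by
  apply card_le_mul_stab f1 64 {v : V | v (.inr 0) = 1} (Set.toFinite _)
  · apply ncard_le _ 64 (Finset.univ.filter (fun q : F4 × F4 × F4 × F4 => q.2.2.1 = 1)) (by decide +kernel)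
    intro v hv
    rw [Finset.mem_filter]
    exact ⟨Finset.mem_univ _, hv⟩
  · intro g
    change ((g : S) • f1) (.inr 0) = 1
    have h1 : (g : S) • e1 = e1 := MulAction.mem_stabilizer_iff.1 g.2
    rw [← om_e1 ((g : S) • f1)]
    conv_lhs => rw [← h1]
    rw [om_smul, om_e1]
    rfl

theorem step3 : Nat.card G2 ≤ 15 * Nat.card G3 := by
  apply card_le_mul_stab e2 15 {v : V | v ≠ 0 ∧ v (.inr 0) = 0 ∧ v (.inl 0) = 0} (Set.toFinite _)
  · apply ncard_le _ 15 (Finset.univ.filter (fun q : F4 × F4 × F4 × F4 =>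
        q ≠ (0, 0, 0, 0) ∧ q.2.2.1 = 0 ∧ q.1 = 0)) (by decide +kernel)
    intro v hv
    rw [Finset.mem_filter]
    refine ⟨Finset.mem_univ _, fun h => hv.1 ?_, hv.2.1, hv.2.2⟩
    rw [eta v]
    simp only [Prod.mk.injEq] at h
    funext i
    rcases i with i | i <;> fin_cases i <;> simp [mkV, h]
  · intro g
    have h1 : (g.1.1 : S) • e1 = e1 := MulAction.mem_stabilizer_iff.1 g.1.2
    have h2 : (g.1.1 : S) • f1 = f1 := MulAction.mem_stabilizer_iff.1 g.2
    change (g.1.1 : S) • e2 ≠ 0 ∧ ((g.1.1 : S) • e2) (.inr 0) = 0 ∧ ((g.1.1 : S) • e2) (.inl 0) = 0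
    refine ⟨smul_ne_zero _ e2 e2_ne, ?_, ?_⟩
    · rw [← om_e1 ((g.1.1 : S) • e2)]
      conv_lhs => rw [← h1]
      rw [om_smul, om_e1]; rfl
    · rw [← om_f1 ((g.1.1 : S) • e2)]
      conv_lhs => rw [← h2]
      rw [om_smul, om_f1]; rfl

theorem step4 : Nat.card G3 ≤ 4 * Nat.card G4 := by
  apply card_le_mul_stab f2 4 {v : V | v (.inr 0) = 0 ∧ v (.inl 0) = 0 ∧ v (.inr 1) = 1}
    (Set.toFinite _)
  · apply ncard_le _ 4 (Finset.univ.filter (fun q : F4 × F4 × F4 × F4 =>
        q.2.2.1 = 0 ∧ q.1 = 0 ∧ q.2.2.2 = 1)) (by decide +kernel)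
    intro v hv
    rw [Finset.mem_filter]
    exact ⟨Finset.mem_univ _, hv⟩
  · intro g
    have h1 : (g.1.1.1 : S) • e1 = e1 := MulAction.mem_stabilizer_iff.1 g.1.1.2
    have h2 : (g.1.1.1 : S) • f1 = f1 := MulAction.mem_stabilizer_iff.1 g.1.2
    have h3 : (g.1.1.1 : S) • e2 = e2 := MulAction.mem_stabilizer_iff.1 g.2
    change ((g.1.1.1 : S) • f2) (.inr 0) = 0 ∧ ((g.1.1.1 : S) • f2) (.inl 0) = 0 ∧
      ((g.1.1.1 : S) • f2) (.inr 1) = 1
    refine ⟨?_, ?_, ?_⟩
    · rw [← om_e1 ((g.1.1.1 : S) • f2)]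
      conv_lhs => rw [← h1]
      rw [om_smul, om_e1]; rfl
    · rw [← om_f1 ((g.1.1.1 : S) • f2)]
      conv_lhs => rw [← h2]
      rw [om_smul, om_f1]; rfl
    · rw [← om_e2 ((g.1.1.1 : S) • f2)]
      conv_lhs => rw [← h3]
      rw [om_smul, om_e2]; rfl

theorem forall_I4 (P : I4 → Prop) (h1 : P (.inl 0)) (h2 : P (.inl 1)) (h3 : P (.inr 0))
    (h4 : P (.inr 1)) : ∀ j, P j := by
  rintro (j | j) <;> fin_cases j <;> assumption

theorem eq_one_of_fix (A : S) (h1 : A • e1 = e1) (h2 : A • f1 = f1) (h3 : A • e2 = e2)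
    (h4 : A • f2 = f2) : A = 1 := by
  apply Subtype.ext
  change A.1 = 1
  ext i j
  revert j
  apply forall_I4
  · have := congrFun h1 i
    rw [smul_def, mulVec4] at this
    simp only [e1, mkV, Sum.elim_inl, Sum.elim_inr, Matrix.cons_val_zero, Matrix.cons_val_one,
      mul_one, mul_zero, add_zero] at this
    rw [this]
    clear this
    revert i
    apply forall_I4 <;> rfl
  · have := congrFun h3 i
    rw [smul_def, mulVec4] at this
    simp only [e2, mkV, Sum.elim_inl, Sum.elim_inr, Matrix.cons_val_zero, Matrix.cons_val_one,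
      mul_one, mul_zero, add_zero, zero_add] at this
    rw [this]
    clear this
    revert i
    apply forall_I4 <;> rfl
  · have := congrFun h2 i
    rw [smul_def, mulVec4] at this
    simp only [f1, mkV, Sum.elim_inl, Sum.elim_inr, Matrix.cons_val_zero, Matrix.cons_val_one,
      mul_one, mul_zero, add_zero, zero_add] at this
    rw [this]
    clear this
    revert i
    apply forall_I4 <;> rfl
  · have := congrFun h4 i
    rw [smul_def, mulVec4] at this
    simp only [f2, mkV, Sum.elim_inl, Sum.elim_inr, Matrix.cons_val_zero, Matrix.cons_val_one,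
      mul_one, mul_zero, add_zero, zero_add] at this
    rw [this]
    clear this
    revert i
    apply forall_I4 <;> rfl

theorem card_G4 : Nat.card G4 = 1 := by
  have : G4 = ⊥ := by
    rw [Subgroup.eq_bot_iff_forall]
    intro g hg
    have h1 : (g.1.1.1 : S) • e1 = e1 := MulAction.mem_stabilizer_iff.1 g.1.1.2
    have h2 : (g.1.1.1 : S) • f1 = f1 := MulAction.mem_stabilizer_iff.1 g.1.2
    have h3 : (g.1.1.1 : S) • e2 = e2 := MulAction.mem_stabilizer_iff.1 g.2
    have h4 : (g.1.1.1 : S) • f2 = f2 := MulAction.mem_stabilizer_iff.1 hg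
    have := eq_one_of_fix _ h1 h2 h3 h4
    apply Subtype.ext
    apply Subtype.ext
    apply Subtype.ext
    exact this
  rw [this, Subgroup.card_bot]

/-- the order of `Sp₄(4)` is at most `979200` -/
theorem card_le : Nat.card S ≤ 979200 := by
  have h1 := step1
  have h2 := step2
  have h3 := step3
  have h4 := step4
  rw [card_G4] at h4
  omega

end Cfsg.Agent.Lib.Helper86.Sp4Card
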