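import Cfsg.Agent.Lib.Helper29.S1683.Data
import Cfsg.Agent.Lib.Helper86.Sp4.HeData
import Cfsg.Agent.Lib.Helper86.Sp4.PermChain
import Cfsg.Agent.Lib.Helper86.Sp4.Sp4Pts

/-!
# Kernel checks for the block action of `H` and its comparison with `Sp₄(4)`
-/

set_option autoImplicit false

namespace Cfsg.Agent.Lib.Helper86.HeSp4Chk

open Cfsg.Agent.Lib.Helper86.HeSp4Data Cfsg.Agent.Lib.Helper86.PermChain
open Cfsg.Agent.Lib.Helper86.Sp4F4 Cfsg.Agent.Lib.Helper86.Sp4Card Cfsg.Agent.Lib.Helper86.Sp4Pts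
open Cfsg.Agent.Lib.Helper29.TcPerm Cfsg.Agent.Lib.Helper29.S1683 Matrix

set_option maxRecDepth 100000 in
theorem chk_blocks : ∀ i, i < 425 → ∀ s, s < 7 →
    bkN (runL P (wc s) (20415 + 15 * i)) = tb s (bkN (20415 + 15 * i)) ∧
      bkN (20415 + 15 * i) < 85 := by decide +kernel

theorem chk_rep : ∀ p, p < 85 → bkN (20415 + 15 * rp p) = p ∧ rp p < 425 := by decide +kernel

set_option maxRecDepth 100000 in
theorem chk_slp : allLt (fun k => decide (k < 7) || slpOK tb si sj 85 k) 403 = true := by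
  decide +kernel

set_option maxRecDepth 100000 in
theorem chk_lv : lvlsOK tb 85 403 [] lv = true := by decide +kernel

theorem chk_prod : lvlsProd lv = 1958400 := by decide +kernel

theorem chk_gens : ∀ s, s < 7 → ∀ p, p < 85 →
    tb s p < 85 ∧ tb (iv s) p < 85 ∧ tb (iv s) (tb s p) = p ∧ tb s (tb (iv s) p) = p := by
  decide +kernel

theorem chk_mem : ∀ j, j < 12 →
    mkM (mc j) * J (Fin 2) F4 * (mkM (mc j))ᵀ = J (Fin 2) F4 := by decide +kernel

theorem chk_act : ∀ j, j < 12 → ∀ p, p < 85 → actN (mc j) p = gt j p := by decide +kernel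

end Cfsg.Agent.Lib.Helper86.HeSp4Chk
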