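import Cfsg.Agent.S1683
import Cfsg.Agent.Lib.Helper29.OrdCox
import Cfsg.Agent.Lib.Helper86.Sp4.HeChk

/-!
# The subgroup `H = S₄(4):2` of the presented Held group

`H` (index 2058) acts on 85 blocks inside its orbit of length 425; this action is faithful, and
the subgroup of index 2 generated by Schreier generators acts as `Sp₄(4)` on the points of
`PG(3,4)`.
-/

set_option autoImplicit false

namespace Cfsg.Agent.Lib.Helper86.HeSp4

open Cfsg.Agent.Lib.Helper86.HeSp4Data Cfsg.Agent.Lib.Helper86.HeSp4Chk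
open Cfsg.Agent.Lib.Helper86.PermChain
open Cfsg.Agent.Lib.Helper86.Sp4F4 Cfsg.Agent.Lib.Helper86.Sp4Card Cfsg.Agent.Lib.Helper86.Sp4Pts
open Cfsg.Agent.Lib.Helper29 Cfsg.Agent.Lib.Helper29.TcPerm Cfsg.Agent.Lib.Helper29.TcCox
open Cfsg.Agent.Lib.Helper29.OrdBasic Cfsg.Agent.Lib.Helper29.OrdCox Cfsg.Spor

/-- the presented Held group -/
abbrev G := CoxPresented He.Gen He.edges He.extra

/-- the permutation representation on 2058 points -/
noncomputable abbrev φ : G →* Equiv.Perm ℕ := phi Cfsg.Agent.S1683.ok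

/-- the subgroup `H` -/
abbrev HH : Subgroup G := Hsub He.edges He.extra Cfsg.Agent.Lib.Helper29.S1683.hWords

/-- the orbit of length 425 -/
def O : Set ℕ := {x | x % 15 = 0 ∧ 20415 ≤ x ∧ x < 26790}

theorem orbit_eq : {y | ∃ h ∈ HH, φ h 20415 = y} = O :=
  cox_orbit Cfsg.Agent.S1683.ok 20415 26790 (by decide) (by decide) (by decide) (by decide)

theorem O_inv {h : G} (hh : h ∈ HH) {q : ℕ} (hq : q ∈ O) : φ h q ∈ O := by
  rw [← orbit_eq] at hq ⊢
  obtain ⟨h', hh', rfl⟩ := hq
  exact ⟨h * h', HH.mul_mem hh hh', by rw [map_mul, Equiv.Perm.mul_apply]⟩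

/-- the block of a point -/
def bk (q : ℕ) : Fin 85 := ⟨bkN q % 85, Nat.mod_lt _ (by norm_num)⟩

/-- `g` acts on the blocks by `π` -/
def Spec (g : G) (π : Equiv.Perm (Fin 85)) : Prop := ∀ q ∈ O, bk (φ g q) = π (bk q)

theorem bk_surj (p : Fin 85) : ∃ q ∈ O, bk q = p := by
  obtain ⟨h1, h2⟩ := chk_rep p.1 p.2
  refine ⟨20415 + 15 * rp p.1, ⟨by omega, by omega, by omega⟩, ?_⟩
  apply Fin.ext
  change bkN (20415 + 15 * rp p.1) % 85 = p.1
  rw [h1, Nat.mod_eq_of_lt p.2]

theorem spec_unique {g : G} {π π' : Equiv.Perm (Fin 85)} (h : Spec g π) (h' : Spec g π') :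
    π = π' := by
  apply Equiv.ext
  intro p
  obtain ⟨q, hq, rfl⟩ := bk_surj p
  rw [← h q hq, ← h' q hq]

theorem spec_one : Spec 1 1 := fun q _ => by rw [map_one]; rfl

theorem spec_mul {g₁ g₂ : G} {π₁ π₂ : Equiv.Perm (Fin 85)} (h₁ : Spec g₁ π₁) (h₂ : Spec g₂ π₂)
    (hg₂ : g₂ ∈ HH) : Spec (g₁ * g₂) (π₁ * π₂) := by
  intro q hq
  rw [map_mul, Equiv.Perm.mul_apply, h₁ _ (O_inv hg₂ hq), h₂ q hq, Equiv.Perm.mul_apply]

theorem spec_inv {g : G} {π : Equiv.Perm (Fin 85)} (h : Spec g π) (hg : g ∈ HH) :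
    Spec g⁻¹ π⁻¹ := by
  intro q hq
  have hq' := O_inv (HH.inv_mem hg) hq
  have := h _ hq'
  rw [← Equiv.Perm.mul_apply, ← map_mul, mul_inv_cancel, map_one, Equiv.Perm.one_apply] at this
  rw [this]
  exact (π.symm_apply_apply _).symm

/-- the generator words -/
def gw (s : ℕ) : List (He.Gen × Bool) := Cfsg.Agent.Lib.Helper29.S1683.hWords.getD s []

theorem gw_mem : ∀ s, s < 7 → gw s ∈ Cfsg.Agent.Lib.Helper29.S1683.hWords := by decide

theorem gw_cols : ∀ s, s < 7 → (gw s).map Cfsg.Agent.Lib.Helper29.S1683.colOf = wc s := by decide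

theorem mem_gw : ∀ w ∈ Cfsg.Agent.Lib.Helper29.S1683.hWords, ∃ s, s < 7 ∧ w = gw s := by decide

theorem lw_mem_HH {s : ℕ} (hs : s < 7) : lw He.edges He.extra (gw s) ∈ HH :=
  Subgroup.subset_closure ⟨gw s, gw_mem s hs, rfl⟩

/-- the permutation of a generator on the blocks -/
def gperm (s : ℕ) (hs : s < 7) : Equiv.Perm (Fin 85) where
  toFun p := ⟨tb s p.1 % 85, Nat.mod_lt _ (by norm_num)⟩
  invFun p := ⟨tb (iv s) p.1 % 85, Nat.mod_lt _ (by norm_num)⟩
  left_inv p := by
    obtain ⟨h1, h2, h3, h4⟩ := chk_gens s hs p.1 p.2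
    apply Fin.ext
    change tb (iv s) (tb s p.1 % 85) % 85 = p.1
    rw [Nat.mod_eq_of_lt h1, h3, Nat.mod_eq_of_lt p.2]
  right_inv p := by
    obtain ⟨h1, h2, h3, h4⟩ := chk_gens s hs p.1 p.2
    apply Fin.ext
    change tb s (tb (iv s) p.1 % 85) % 85 = p.1
    rw [Nat.mod_eq_of_lt h2, h4, Nat.mod_eq_of_lt p.2]

theorem gperm_apply (s : ℕ) (hs : s < 7) (p : Fin 85) :
    ((gperm s hs p : Fin 85) : ℕ) = tb s p.1 :=
  Nat.mod_eq_of_lt (chk_gens s hs p.1 p.2).1

theorem spec_gen (s : ℕ) (hs : s < 7) : Spec (lw He.edges He.extra (gw s)) (gperm s hs) := by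
  intro q hq
  obtain ⟨h1, h2, h3⟩ := hq
  obtain ⟨i, rfl⟩ : ∃ i, q = 20415 + 15 * i := ⟨(q - 20415) / 15, by omega⟩
  have hi : i < 425 := by omega
  obtain ⟨c1, c2⟩ := chk_blocks i hi s hs
  have hv : ValidL Cfsg.Agent.Lib.Helper29.S1683.P (20415 + 15 * i) :=
    (validL_iff _ _).2 ⟨h1, by change _ < 30870; omega⟩
  apply Fin.ext
  rw [gperm_apply]
  change bkN (φ (lw He.edges He.extra (gw s)) (20415 + 15 * i)) % 85 =
    tb s (bkN (20415 + 15 * i) % 85)
  rw [phi_lw_valid Cfsg.Agent.S1683.ok (gw s) _ hv, gw_cols s hs, c1, Nat.mod_eq_of_lt c2]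
  exact Nat.mod_eq_of_lt (chk_gens s hs _ c2).1

/-- the elements of `H` acting on the blocks -/
def TT : Subgroup G where
  carrier := {g | g ∈ HH ∧ ∃ π, Spec g π}
  one_mem' := ⟨HH.one_mem, 1, spec_one⟩
  mul_mem' := by
    rintro a b ⟨ha, π₁, h₁⟩ ⟨hb, π₂, h₂⟩
    exact ⟨HH.mul_mem ha hb, π₁ * π₂, spec_mul h₁ h₂ hb⟩
  inv_mem' := by
    rintro a ⟨ha, π, h⟩
    exact ⟨HH.inv_mem ha, π⁻¹, spec_inv h ha⟩

theorem HH_le_TT : HH ≤ TT := by
  change Subgroup.closure _ ≤ _
  rw [Subgroup.closure_le]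
  rintro _ ⟨w, hw, rfl⟩
  obtain ⟨s, hs, rfl⟩ := mem_gw w hw
  exact ⟨lw_mem_HH hs, gperm s hs, spec_gen s hs⟩

theorem ex_spec (h : HH) : ∃ π, Spec h.1 π := (HH_le_TT h.2).2

/-- the action of `H` on the 85 blocks -/
noncomputable def sig : HH →* Equiv.Perm (Fin 85) :=
  MonoidHom.mk' (fun h => Classical.choose (ex_spec h)) (fun a b =>
    spec_unique (Classical.choose_spec (ex_spec (a * b)))
      (spec_mul (Classical.choose_spec (ex_spec a)) (Classical.choose_spec (ex_spec b)) b.2))

theorem sig_spec (h : HH) : Spec h.1 (sig h) := Classical.choose_spec (ex_spec h)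

/-- the generators as elements of `H` -/
noncomputable def xg (s : ℕ) (hs : s < 7) : HH := ⟨lw He.edges He.extra (gw s), lw_mem_HH hs⟩

theorem sig_xg (s : ℕ) (hs : s < 7) : sig (xg s hs) = gperm s hs :=
  spec_unique (sig_spec _) (spec_gen s hs)

theorem card_range_ge : 1958400 ≤ Nat.card sig.range := by
  rw [← chk_prod]
  apply card_ge sig.range tb si sj 7 403 _ _ lv chk_lv
  · intro k hk
    exact ⟨sig (xg k hk), ⟨_, rfl⟩, fun p => by rw [sig_xg]; exact gperm_apply k hk p⟩
  · intro k hk1 hk2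
    have := allLt_spec _ 403 chk_slp k hk2
    simp only [Bool.or_eq_true, decide_eq_true_eq] at this
    rcases this with h | h
    · omega
    · exact h

theorem card_HH_le_of [Finite G] (hcard : Nat.card G ≤ 4030387200) : Nat.card HH ≤ 1958400 := by
  have h1 := Subgroup.card_mul_index HH
  have hidx : HH.index = 2058 := (cox_index_stab Cfsg.Agent.S1683.ok).1
  rw [hidx] at h1
  have h2 : Nat.card HH * 2058 ≤ 1958400 * 2058 := by rw [h1]; exact hcard
  exact Nat.le_of_mul_le_mul_right h2 (by norm_num)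

theorem sig_facts [Finite G] (hcard : Nat.card G ≤ 4030387200) :
    Nat.card HH = 1958400 ∧ Function.Injective sig :=
  card_eq_and_injective sig 1958400 (card_HH_le_of hcard) card_range_ge

/-! ### the subgroup of index 2 -/

theorem half {K : Type*} [Group K] (E : Set K) (t : K) (ht : t * t = 1) :
    ∀ h ∈ Subgroup.closure (insert t E),
      h ∈ Subgroup.closure (E ∪ (fun x => t * x * t) '' E) ∨
        h * t ∈ Subgroup.closure (E ∪ (fun x => t * x * t) '' E) := by
  set N := Subgroup.closure (E ∪ (fun x => t * x * t) '' E) with hN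
  have htinv : t⁻¹ = t := inv_eq_of_mul_eq_one_left ht
  have e1 : ∀ a : K, t * (t * a) = a := fun a => by rw [← mul_assoc, ht, one_mul]
  have conj : ∀ x ∈ N, t * x * t ∈ N := by
    intro x hx
    induction hx using Subgroup.closure_induction with
    | mem x hx =>
      rcases hx with hx | ⟨y, hy, rfl⟩
      · exact Subgroup.subset_closure (Or.inr ⟨x, hx, rfl⟩)
      · have : t * (t * y * t) * t = y := by simp only [mul_assoc, e1, ht, mul_one]
        rw [this]
        exact Subgroup.subset_closure (Or.inl hy)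
    | one =>
      rw [mul_one, ht]
      exact N.one_mem
    | mul x y _ _ ihx ihy =>
      have : t * (x * y) * t = (t * x * t) * (t * y * t) := by simp only [mul_assoc, e1]
      rw [this]
      exact N.mul_mem ihx ihy
    | inv x _ ih =>
      have : t * x⁻¹ * t = (t * x * t)⁻¹ := by simp only [mul_inv_rev, htinv, mul_assoc]
      rw [this]
      exact N.inv_mem ih
  intro h hh
  induction hh using Subgroup.closure_induction with
  | mem x hx =>
    rcases hx with rfl | hx
    · right
      rw [ht]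
      exact N.one_mem
    · left
      exact Subgroup.subset_closure (Or.inl hx)
  | one =>
    left
    exact N.one_mem
  | mul x y _ _ ihx ihy =>
    rcases ihx with hx | hx <;> rcases ihy with hy | hy
    · left
      exact N.mul_mem hx hy
    · right
      rw [mul_assoc]
      exact N.mul_mem hx hy
    · right
      have : x * y * t = (x * t) * (t * y * t) := by simp only [mul_assoc, e1]
      rw [this]
      exact N.mul_mem hx (conj y hy)
    · left
      have : x * y = (x * t) * (t * (y * t) * t) := by simp only [mul_assoc, e1, ht, mul_one]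
      rw [this]
      exact N.mul_mem hx (conj _ hy)
  | inv x _ ih =>
    rcases ih with hx | hx
    · left
      exact N.inv_mem hx
    · right
      have : x⁻¹ * t = t * (x * t)⁻¹ * t := by simp only [mul_inv_rev, htinv, e1]
      rw [this]
      exact conj _ (N.inv_mem hx)

theorem es_lt (j : ℕ) : es j < 7 := by
  unfold es
  split <;> omega

/-- the generators of `H` that act linearly -/
noncomputable def xe (j : ℕ) : HH := xg (es j) (es_lt j)

/-- the generator of `H` that acts as a field automorphism -/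
noncomputable def tt : HH := xg 5 (by norm_num)

/-- the generating set of the linear generators -/
def EE : Set HH := {x | ∃ j, j < 6 ∧ xe j = x}

/-- the subgroup of index 2 -/
noncomputable def N0 : Subgroup HH := Subgroup.closure (EE ∪ (fun x => tt * x * tt) '' EE)

theorem tt_sq : tt * tt = 1 := by
  apply Subtype.ext
  change lw He.edges He.extra (gw 5) * lw He.edges He.extra (gw 5) = 1
  rw [← lw_append]
  exact pair_rel He.edges He.extra (x := He.Gen.a) (y := He.Gen.b) (by decide) (by decide)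

theorem gen_top : Subgroup.closure (insert tt EE) = ⊤ := by
  rw [eq_top_iff, ← Subgroup.closure_closure_coe_preimage]
  apply Subgroup.closure_mono
  rintro ⟨x, hx⟩ ⟨w, hw, hwx⟩
  obtain ⟨s, hs, rfl⟩ := mem_gw w hw
  have hx' : (⟨x, hx⟩ : HH) = xg s hs := Subtype.ext hwx.symm
  rw [hx']
  have : s = 5 ∨ ∃ j, j < 6 ∧ es j = s := by
    interval_cases s
    · exact Or.inr ⟨0, by norm_num, rfl⟩
    · exact Or.inr ⟨1, by norm_num, rfl⟩
    · exact Or.inr ⟨2, by norm_num, rfl⟩
    · exact Or.inr ⟨3, by norm_num, rfl⟩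
    · exact Or.inr ⟨4, by norm_num, rfl⟩
    · exact Or.inl rfl
    · exact Or.inr ⟨5, by norm_num, rfl⟩
  rcases this with rfl | ⟨j, hj, rfl⟩
  · exact Or.inl rfl
  · exact Or.inr ⟨j, hj, rfl⟩

theorem half_HH (h : HH) : h ∈ N0 ∨ h * tt ∈ N0 :=
  half EE tt tt_sq h (by rw [gen_top]; exact Subgroup.mem_top h)

theorem card_HH_le [Finite HH] : Nat.card HH ≤ Nat.card N0 + Nat.card N0 := by
  classical
  let f : HH → N0 ⊕ N0 := fun h =>
    if hh : h ∈ N0 then Sum.inl ⟨h, hh⟩ else Sum.inr ⟨h * tt, (half_HH h).resolve_left hh⟩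
  have hf : Function.Injective f := by
    intro a b hab
    by_cases ha : a ∈ N0 <;> by_cases hb : b ∈ N0
    · simp only [f, dif_pos ha, dif_pos hb, Sum.inl.injEq, Subtype.mk.injEq] at hab
      exact hab
    · simp only [f, dif_pos ha, dif_neg hb] at hab
      exact absurd hab (by simp)
    · simp only [f, dif_neg ha, dif_pos hb] at hab
      exact absurd hab (by simp)
    · simp only [f, dif_neg ha, dif_neg hb, Sum.inr.injEq, Subtype.mk.injEq] at hab
      exact mul_right_cancel hab
  have := Nat.card_le_card_of_injective f hf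
  rwa [Nat.card_sum] at this

/-! ### comparison with the symplectic group -/

theorem mem_S (j : ℕ) (hj : j < 12) : mkM (mc j) ∈ S := mkM_mem _ (chk_mem j hj)

theorem sig_xe (j : ℕ) (hj : j < 6) :
    sig (xe j) = tau (mkS (mc j) (mem_S j (by omega))) := by
  apply Equiv.ext
  intro p
  apply Fin.ext
  rw [xe, sig_xg, gperm_apply, tau_mkS, chk_act j (by omega) p.1 p.2]
  unfold gt
  rw [if_pos hj]

theorem sig_conj (j : ℕ) (hj : j < 6) :
    sig (tt * xe j * tt) = tau (mkS (mc (j + 6)) (mem_S (j + 6) (by omega))) := by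
  apply Equiv.ext
  intro p
  apply Fin.ext
  rw [map_mul, map_mul, Equiv.Perm.mul_apply, Equiv.Perm.mul_apply, xe, tt, sig_xg, sig_xg,
    gperm_apply, gperm_apply, gperm_apply, tau_mkS, chk_act (j + 6) (by omega) p.1 p.2]
  unfold gt
  rw [if_neg (by omega), Nat.add_sub_cancel]

theorem map_le : N0.map sig ≤ tau.range := by
  rw [Subgroup.map_le_iff_le_comap, N0, Subgroup.closure_le]
  rintro x (⟨j, hj, rfl⟩ | ⟨_, ⟨j, hj, rfl⟩, rfl⟩)
  · exact ⟨_, (sig_xe j hj).symm⟩
  · exact ⟨_, (sig_conj j hj).symm⟩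

/-- **Main theorem**: `H` has a normal subgroup of index 2 isomorphic to `Sp₄(4)`, given the
upper bound for the order of the Held group. -/
theorem main [Finite G] (hcard : Nat.card G ≤ 4030387200) :
    ∃ N : Subgroup HH, N.Normal ∧ N.index = 2 ∧ Nonempty (N ≃* S) := by
  obtain ⟨h1, hinj⟩ := sig_facts hcard
  have h2 : Nat.card HH ≤ Nat.card N0 + Nat.card N0 := card_HH_le
  have h3 : Nat.card (N0.map sig) = Nat.card N0 := Subgroup.card_map_of_injective hinj
  have h4 : Nat.card (N0.map sig) ≤ Nat.card tau.range :=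
    Nat.card_le_card_of_injective (Subgroup.inclusion map_le) (Subgroup.inclusion_injective _)
  have h5 : Nat.card tau.range ≤ Nat.card S := card_range_le tau
  have h6 := card_le
  have h7 : Nat.card N0 = 979200 := by omega
  have h8 : N0.map sig = tau.range := Subgroup.eq_of_le_of_card_ge map_le (by omega)
  have h9 : Function.Injective tau :=
    (card_eq_and_injective tau 979200 h6 (by omega)).2
  refine ⟨N0, ?_, ?_, ⟨?_⟩⟩
  · have hidx : N0.index = 2 := by
      have := Subgroup.card_mul_index N0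
      rw [h7, h1] at this
      omega
    exact Subgroup.normal_of_index_eq_two hidx
  · have := Subgroup.card_mul_index N0
    rw [h7, h1] at this
    omega
  · exact ((Subgroup.equivMapOfInjective N0 sig hinj).trans (MulEquiv.subgroupCongr h8)).trans
      (MonoidHom.ofInjective h9).symm

/-- the statement for the subgroup as a closure of words of the free group, for a field with
four elements -/
theorem main' [Finite G] (hcard : Nat.card G ≤ 4030387200) :
    ∃ (N : Subgroup (((Subgroup.closure ({He.a, He.c, He.d, He.e, He.f, (He.a * He.b) ^ 2,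
        (He.b * He.c * He.d * He.e) ^ 7} : Set (FreeGroup He.Gen))).map
        (PresentedGroup.mk (coxRelators He.edges ∪ {r | r ∈ He.extra})))))
      (K : Type) (_ : Field K) (_ : Fintype K), N.Normal ∧ N.index = 2 ∧ Fintype.card K = 4 ∧
        Nonempty (N ≃* Matrix.symplecticGroup (Fin 2) K) := by
  rw [H_eq Cfsg.Agent.S1683.ok]
  obtain ⟨N, h1, h2, h3⟩ := main hcard
  exact ⟨N, F4, inferInstance, inferInstance, h1, h2, F4.card, h3⟩

end Cfsg.Agent.Lib.Helper86.HeSp4
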